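-- Project AMI (S4294), package [THUE] (helper84): a prime `l ≡ 3 (mod 20)` satisfies
-- `2 l = r² + 5 e²`.
import Mathlib
import Cfsg.Agent.Lib.Lead.Ami.Defs

set_option autoImplicit false

namespace Cfsg.Agent.Lib.Helper84.Ami

open Cfsg.Agent.Lib.Lead.Ami

/-- Thue's lemma (pigeonhole). -/
theorem thue_aux (l : ℕ) (hl : l.Prime) (k : ZMod l) :
    ∃ u v : ℤ, (u ≠ 0 ∨ v ≠ 0) ∧ u ^ 2 ≤ (Nat.sqrt l : ℤ) ^ 2 ∧ v ^ 2 ≤ (Nat.sqrt l : ℤ) ^ 2 ∧
      (u : ZMod l) = k * (v : ZMod l) := by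
  have : Fact l.Prime := ⟨hl⟩
  let f : Fin (Nat.sqrt l + 1) × Fin (Nat.sqrt l + 1) → ZMod l :=
    fun ab => ((ab.1 : ℕ) : ZMod l) - k * ((ab.2 : ℕ) : ZMod l)
  have hcard : Fintype.card (ZMod l) < Fintype.card (Fin (Nat.sqrt l + 1) × Fin (Nat.sqrt l + 1)) := by
    rw [ZMod.card, Fintype.card_prod, Fintype.card_fin]
    exact Nat.lt_succ_sqrt l
  obtain ⟨x, y, hxy, hf⟩ := Fintype.exists_ne_map_eq_of_card_lt f hcard
  have hx1 := x.1.2
  have hx2 := x.2.2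
  have hy1 := y.1.2
  have hy2 := y.2.2
  refine ⟨((x.1 : ℕ) : ℤ) - ((y.1 : ℕ) : ℤ), ((x.2 : ℕ) : ℤ) - ((y.2 : ℕ) : ℤ), ?_, ?_, ?_, ?_⟩
  · by_contra hcon
    push Not at hcon
    apply hxy
    have h1 : (x.1 : ℕ) = y.1 := by omega
    have h2 : (x.2 : ℕ) = y.2 := by omega
    exact Prod.ext (Fin.ext h1) (Fin.ext h2)
  · exact sq_le_sq' (by omega) (by omega)
  · exact sq_le_sq' (by omega) (by omega)
  · have hf' : ((x.1 : ℕ) : ZMod l) - k * ((x.2 : ℕ) : ZMod l) =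
        ((y.1 : ℕ) : ZMod l) - k * ((y.2 : ℕ) : ZMod l) := hf
    push_cast
    linear_combination hf'

theorem sq_add_five_ne (x y : ℤ) (l : ℕ) (hl : l % 5 = 3) : x ^ 2 + 5 * y ^ 2 ≠ (l : ℤ) := by
  intro h
  have h1 := congrArg (Int.cast : ℤ → ZMod 5) h
  push_cast at h1
  have h5 : (5 : ZMod 5) = 0 := by decide
  rw [h5, zero_mul, add_zero] at h1
  have h2 : (l : ZMod 5) = 3 := by
    rw [← ZMod.natCast_mod, hl]; rfl
  rw [h2] at h1
  have h3 : ∀ t : ZMod 5, t ^ 2 ≠ 3 := by decide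
  exact h3 _ h1

theorem not_isSquare_three_zmod_five : ¬ IsSquare (3 : ZMod 5) := by
  rintro ⟨r, hr⟩
  have h3 : ∀ t : ZMod 5, (3 : ZMod 5) ≠ t * t := by decide
  exact h3 r hr

theorem exists_sq_neg_five (l : ℕ) (hl : l.Prime) (hl4 : l % 4 = 3) (hl5 : l % 5 = 3) :
    ∃ k : ZMod l, k * k = -5 := by
  have : Fact l.Prime := ⟨hl⟩
  have hl2 : l ≠ 2 := by omega
  have hm1 : ¬ IsSquare (-1 : ZMod l) := by
    rw [ZMod.exists_sq_eq_neg_one_iff]
    simp [hl4]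
  have h5 : ¬ IsSquare ((5 : ℕ) : ZMod l) := by
    have : Fact (Nat.Prime 5) := ⟨by norm_num⟩
    rw [← ZMod.exists_sq_eq_prime_iff_of_mod_four_eq_one (p := 5) (q := l) (by norm_num) hl2]
    have h3 : ((l : ℕ) : ZMod 5) = 3 := by rw [← ZMod.natCast_mod, hl5]; rfl
    rw [h3]
    exact not_isSquare_three_zmod_five
  have h1 : quadraticChar (ZMod l) (-1) = -1 := quadraticChar_neg_one_iff_not_isSquare.mpr hm1
  have h2 : quadraticChar (ZMod l) ((5 : ℕ) : ZMod l) = -1 :=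
    quadraticChar_neg_one_iff_not_isSquare.mpr h5
  have h3 : quadraticChar (ZMod l) (-1 * ((5 : ℕ) : ZMod l)) = 1 := by
    rw [map_mul, h1, h2]; norm_num
  have hne : (-1 * ((5 : ℕ) : ZMod l)) ≠ 0 := by
    intro h
    rw [h] at h3
    simp at h3
  obtain ⟨k, hk⟩ := (quadraticChar_one_iff_isSquare hne).mp h3
  refine ⟨k, ?_⟩
  rw [← hk]
  push_cast
  ring

theorem pkgThue : PkgThue := by
  intro l hl hl20
  by_cases h3 : l = 3
  · subst h3
    exact ⟨1, 1, by norm_num⟩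
  have hl4 : l % 4 = 3 := by omega
  have hl5 : l % 5 = 3 := by omega
  obtain ⟨k, hk⟩ := exists_sq_neg_five l hl hl4 hl5
  obtain ⟨u, v, hne, hu, hv, huv⟩ := thue_aux l hl k
  have hdvd : (l : ℤ) ∣ u ^ 2 + 5 * v ^ 2 := by
    rw [← ZMod.intCast_zmod_eq_zero_iff_dvd]
    push_cast
    rw [huv]
    linear_combination ((v : ZMod l)) ^ 2 * hk
  obtain ⟨c, hc⟩ := hdvd
  have hm1 : (Nat.sqrt l : ℤ) ^ 2 < l := by
    have h1 : Nat.sqrt l * Nat.sqrt l ≤ l := Nat.sqrt_le l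
    have h2 : Nat.sqrt l * Nat.sqrt l ≠ l := by
      intro h
      rcases (Nat.dvd_prime hl).mp ⟨Nat.sqrt l, h.symm⟩ with h' | h'
      · rw [h'] at h; omega
      · rw [h'] at h
        have := hl.two_le
        nlinarith
    have h4 : Nat.sqrt l * Nat.sqrt l < l := lt_of_le_of_ne h1 h2
    have h5 : ((Nat.sqrt l * Nat.sqrt l : ℕ) : ℤ) < (l : ℤ) := by exact_mod_cast h4
    rw [pow_two]
    push_cast at h5
    exact h5
  have hpos : 0 < u ^ 2 + 5 * v ^ 2 := by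
    rcases hne with h | h
    · have h1 : 0 < u ^ 2 := by positivity
      nlinarith [sq_nonneg v]
    · have h1 : 0 < v ^ 2 := by positivity
      nlinarith [sq_nonneg u]
  have hlpos : (0 : ℤ) < l := by exact_mod_cast hl.pos
  have hc_pos : 0 < c := by
    by_contra hcon
    push Not at hcon
    nlinarith
  have hc_lt : c < 6 := by
    by_contra hcon
    push Not at hcon
    nlinarith
  interval_cases c
  · -- c = 1
    exact absurd (by rw [hc]; ring) (sq_add_five_ne u v l hl5)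
  · -- c = 2
    exact ⟨u, v, by rw [hc]; ring⟩
  · -- c = 3
    have h3dvd : (3 : ℤ) ∣ (u - v) * (u + v) := ⟨(l : ℤ) - 2 * v ^ 2, by linear_combination hc⟩
    have hp3 : Prime (3 : ℤ) := Int.prime_iff_natAbs_prime.mpr (by norm_num)
    rcases hp3.dvd_or_dvd h3dvd with ⟨a, ha⟩ | ⟨a, ha⟩
    · refine ⟨a + 2 * v, a, ?_⟩
      have hu' : u = v + 3 * a := by linarith
      rw [hu'] at hc
      have h9 : 3 * ((a + 2 * v) ^ 2 + 5 * a ^ 2) = 3 * (2 * (l : ℤ)) := by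
        linear_combination 2 * hc
      linarith
    · refine ⟨a - 2 * v, a, ?_⟩
      have hu' : u = -v + 3 * a := by linarith
      rw [hu'] at hc
      have h9 : 3 * ((a - 2 * v) ^ 2 + 5 * a ^ 2) = 3 * (2 * (l : ℤ)) := by
        linear_combination 2 * hc
      linarith
  · -- c = 4
    exfalso
    rcases Int.even_or_odd u with ⟨a, ha⟩ | hu1
    · rcases Int.even_or_odd v with ⟨b, hb⟩ | hv1
      · apply sq_add_five_ne a b l hl5
        rw [ha, hb] at hc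
        linarith
      · have h1 := Int.sq_mod_four_eq_one_of_odd hv1
        have h2 : u ^ 2 = 4 * a ^ 2 := by rw [ha]; ring
        omega
    · have h1 := Int.sq_mod_four_eq_one_of_odd hu1
      rcases Int.even_or_odd v with ⟨b, hb⟩ | hv1
      · have h2 : v ^ 2 = 4 * b ^ 2 := by rw [hb]; ring
        omega
      · have h2 := Int.sq_mod_four_eq_one_of_odd hv1
        omega
  · -- c = 5
    exfalso
    have hp5 : Prime (5 : ℤ) := Int.prime_iff_natAbs_prime.mpr (by norm_num)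
    have h5dvd : (5 : ℤ) ∣ u ^ 2 := ⟨(l : ℤ) - v ^ 2, by linear_combination hc⟩
    obtain ⟨a, ha⟩ := hp5.dvd_of_dvd_pow h5dvd
    apply sq_add_five_ne v a l hl5
    rw [ha] at hc
    linarith

end Cfsg.Agent.Lib.Helper84.Ami
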